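import Mathlib
import Cfsg.Prelude.Def_Local
import Cfsg.Prelude.Def_OddOrder
import Cfsg.Agent.Lib.Helper63.PLength

/-!
# Control of fusion by `N_G(P)` in a simple group whose `p`-local subgroups have `p`-length one

If every proper subgroup of the finite simple group `G` has `p`-length at most one and `P` is a
Sylow `p`-subgroup, then `x Q x⁻¹ ≤ P` with `Q ≤ P` forces `x ∈ N_G(P) C_G(Q)`
(Bender–Glauberman, Corollary 10.7).
-/

set_option autoImplicit false

namespace Cfsg.Agent.Lib.Helper64.BG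

open Cfsg Cfsg.Agent.Lib.Helper63

/-- In a finite group, one-sided invariance under conjugation gives normalization. -/
theorem mem_normalizer_of_conj {G : Type*} [Group G] [Finite G] (Q : Subgroup G) (x : G)
    (h : ∀ q ∈ Q, x * q * x⁻¹ ∈ Q) : x ∈ Subgroup.normalizer (Q : Set G) := by
  rw [Subgroup.mem_normalizer_iff]
  intro z
  refine ⟨h z, fun hz => ?_⟩
  let f : Q → Q := fun q => ⟨x * q * x⁻¹, h q q.2⟩
  have hf : Function.Injective f := by
    intro a b hab
    have h1 : x * (a : G) * x⁻¹ = x * (b : G) * x⁻¹ := congrArg Subtype.val hab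
    have h2 : (a : G) = b := by
      have := congrArg (fun t => x⁻¹ * t * x) h1
      simpa [mul_assoc] using this
    exact Subtype.ext h2
  obtain ⟨q, hq⟩ := (Finite.injective_iff_surjective.mp hf) ⟨x * z * x⁻¹, hz⟩
  have h1 : x * (q : G) * x⁻¹ = x * z * x⁻¹ := congrArg Subtype.val hq
  have h2 : (q : G) = z := by
    have := congrArg (fun t => x⁻¹ * t * x) h1
    simpa [mul_assoc] using this
  rw [← h2]
  exact q.2

/-- p-length one: `H = O_{p'}(H) N_H(S)`. -/
theorem plen_one_factor {H : Type*} [Group H] [Finite H] {p : ℕ} [Fact p.Prime]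
    (hH : PLengthLE p 1 H) (S : Sylow p H) :
    ∃ K : Subgroup H, K.Normal ∧ (Nat.card K).Coprime p ∧
      ∀ h : H, ∃ k ∈ K, ∃ n ∈ Subgroup.normalizer ((S : Subgroup H) : Set H), h = k * n := by
  have Ser := U_isPSeries p H
  have h3 : U p H 3 = ⊤ := hH
  have hK₁n : (U p H 1).Normal := Ser.normal 1
  have hK₂n : (U p H 2).Normal := Ser.normal 2
  have hK₁c : (Nat.card (U p H 1)).Coprime p := by
    apply card_coprime_of_forall
    intro x hx
    obtain ⟨m, hm, hxm⟩ := Ser.even 0 (by decide) x hx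
    rw [Ser.zero] at hxm
    exact ⟨m, hm, Subgroup.mem_bot.mp hxm⟩
  have hS2 : (S : Subgroup H) ≤ U p H 2 := by
    intro s hs
    have hs3 : s ∈ U p H (2 + 1) := by
      rw [h3]
      exact Subgroup.mem_top s
    obtain ⟨m, hm, hsm⟩ := Ser.even 2 (by decide) s hs3
    obtain ⟨a, ha⟩ := S.isPGroup' ⟨s, hs⟩
    have ha' : s ^ (p ^ a) = 1 := by simpa using congrArg Subtype.val ha
    have hcop : Nat.Coprime m (p ^ a) := Nat.Coprime.pow_right a hm
    have hb := Nat.gcd_eq_gcd_ab m (p ^ a)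
    rw [hcop.gcd_eq_one] at hb
    have hz : s = (s ^ m) ^ (Nat.gcdA m (p ^ a)) := by
      calc s = s ^ (1 : ℤ) := (zpow_one s).symm
        _ = s ^ ((m : ℤ) * Nat.gcdA m (p ^ a) + ((p ^ a : ℕ) : ℤ) * Nat.gcdB m (p ^ a)) := by
            rw [← hb]
            simp
        _ = (s ^ m) ^ (Nat.gcdA m (p ^ a)) := by
            rw [zpow_add, zpow_mul, zpow_mul, zpow_natCast, zpow_natCast, ha', one_zpow, mul_one]
    rw [hz]
    exact Subgroup.zpow_mem _ hsm _
  have hF : Subgroup.normalizer ((S : Subgroup H) : Set H) ⊔ U p H 2 = ⊤ :=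
    Sylow.normalizer_sup_eq_top' S hS2
  -- the quotient by `K₁`
  have hπp : IsPGroup p ((U p H 2).map (QuotientGroup.mk' (U p H 1))) := by
    rintro ⟨_, ⟨x, hx, rfl⟩⟩
    obtain ⟨k, hk⟩ := Ser.odd 1 (by decide) x hx
    refine ⟨k, Subtype.ext ?_⟩
    rw [Subgroup.coe_pow, Subgroup.coe_one, ← map_pow]
    exact (QuotientGroup.eq_one_iff _).2 hk
  have hπn : ((U p H 2).map (QuotientGroup.mk' (U p H 1))).Normal :=
    Subgroup.Normal.map hK₂n _ (QuotientGroup.mk'_surjective _)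
  have hle := normal_pgroup_le_sylow' hπn hπp
    (S.mapSurjective (QuotientGroup.mk'_surjective (U p H 1)))
  refine ⟨U p H 1, hK₁n, hK₁c, fun h => ?_⟩
  have hh : h ∈ ((Subgroup.normalizer ((S : Subgroup H) : Set H) ⊔ U p H 2 : Subgroup H) : Set H) := by
    rw [hF]
    exact Set.mem_univ h
  rw [Subgroup.mul_normal] at hh
  obtain ⟨n, hn, k₂, hk₂, rfl⟩ := Set.mem_mul.mp hh
  have h1 : QuotientGroup.mk' (U p H 1) k₂ ∈
      (S.mapSurjective (QuotientGroup.mk'_surjective (U p H 1)) : Subgroup _) :=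
    hle ⟨k₂, hk₂, rfl⟩
  obtain ⟨s, hs, hsk⟩ := h1
  have h2 : s⁻¹ * k₂ ∈ U p H 1 := by
    have := QuotientGroup.eq.mp hsk
    exact this
  have hns : n * s ∈ Subgroup.normalizer ((S : Subgroup H) : Set H) :=
    Subgroup.mul_mem _ hn (Subgroup.le_normalizer hs)
  refine ⟨(n * s) * (s⁻¹ * k₂) * (n * s)⁻¹, hK₁n.conj_mem _ h2 _, n * s, hns, ?_⟩
  group

/-- A normal `p'`-subgroup centralizes a normal `p`-subgroup. -/
theorem comm_of_normal_coprime {H : Type*} [Group H] [Finite H] {p : ℕ} [Fact p.Prime]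
    (K X : Subgroup H) (hK : K.Normal) (hX : X.Normal) (hKc : (Nat.card K).Coprime p)
    (hXp : IsPGroup p X) : ∀ k ∈ K, ∀ x ∈ X, k * x = x * k := by
  intro k hk x hx
  have h1 : k * x * k⁻¹ * x⁻¹ ∈ K ⊓ X := by
    refine ⟨?_, ?_⟩
    · have e : k * x * k⁻¹ * x⁻¹ = k * (x * k⁻¹ * x⁻¹) := by group
      rw [e]
      exact K.mul_mem hk (hK.conj_mem _ (K.inv_mem hk) x)
    · exact X.mul_mem (hX.conj_mem _ hx k) (X.inv_mem hx)
  have h2 : K ⊓ X = ⊥ := by
    obtain ⟨n, hn⟩ := IsPGroup.iff_card.mp hXp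
    apply disjoint_iff.mp
    apply Subgroup.disjoint_of_coprime_natCard
    rw [hn]
    exact Nat.Coprime.pow_right n hKc
  rw [h2, Subgroup.mem_bot] at h1
  calc k * x = (k * x * k⁻¹ * x⁻¹) * (x * k) := by group
    _ = x * k := by rw [h1, one_mul]

section glevel

variable {G : Type*} [Group G] [Finite G] {p : ℕ} [Fact p.Prime]

omit [Finite G] [Fact (Nat.Prime p)] in
/-- A maximal `p`-subgroup of `N` is (the image of) a Sylow `p`-subgroup of `N`. -/
theorem sylow_of_maximal (N Y : Subgroup G) (hYN : Y ≤ N) (hYp : IsPGroup p Y)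
    (hmax : ∀ T : Subgroup G, IsPGroup p T → Y ≤ T → T ≤ N → T = Y) :
    ∃ S : Sylow p N, (S : Subgroup N) = Y.subgroupOf N := by
  have h1 : IsPGroup p (Y.subgroupOf N) := hYp.comap_subtype
  obtain ⟨S, hS⟩ := h1.exists_le_sylow
  refine ⟨S, ?_⟩
  have h2 : (S : Subgroup N).map N.subtype = Y := by
    apply hmax
    · exact S.isPGroup'.map _
    · intro y hy
      exact ⟨⟨y, hYN hy⟩, hS (Subgroup.mem_subgroupOf.mpr hy), rfl⟩
    · rintro _ ⟨s, _, rfl⟩
      exact s.2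
  rw [← h2]
  ext s
  rw [Subgroup.mem_subgroupOf]
  constructor
  · intro hs
    exact ⟨s, hs, rfl⟩
  · rintro ⟨s', hs', h⟩
    have : s' = s := Subtype.ext h
    rw [← this]
    exact hs'

/-- Sylow's theorem inside `N`, elementwise. -/
theorem conj_into_sylow (N Y : Subgroup G) (S : Sylow p N)
    (hS : (S : Subgroup N) = Y.subgroupOf N)
    (T : Subgroup G) (hTp : IsPGroup p T) (hTN : T ≤ N) :
    ∃ n ∈ N, ∀ t ∈ T, n * t * n⁻¹ ∈ Y := by
  have h1 : IsPGroup p (T.subgroupOf N) := hTp.comap_subtype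
  obtain ⟨S', hS'⟩ := h1.exists_le_sylow
  obtain ⟨g, hg⟩ := MulAction.exists_smul_eq N S' S
  refine ⟨g, g.2, ?_⟩
  intro t ht
  have h2 : (⟨t, hTN ht⟩ : N) ∈ (S' : Subgroup N) := hS' (Subgroup.mem_subgroupOf.mpr ht)
  have h3 : g * ⟨t, hTN ht⟩ * g⁻¹ ∈ (S : Subgroup N) := by
    rw [← hg, Sylow.coe_subgroup_smul]
    exact Subgroup.smul_mem_pointwise_smul _ (MulAut.conj g) _ h2
  rw [hS, Subgroup.mem_subgroupOf] at h3
  exact h3

/-- `N_G(Q) = N_{N_G(Q)}(Y) C_G(Q)` when `N_G(Q)` has `p`-length one and Sylow subgroup `Y`. -/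
theorem normalizer_factor (Q Y : Subgroup G) (hQp : IsPGroup p Q)
    (hpl : PLengthLE p 1 (Subgroup.normalizer (Q : Set G)))
    (S : Sylow p (Subgroup.normalizer (Q : Set G)))
    (hS : (S : Subgroup _) = Y.subgroupOf (Subgroup.normalizer (Q : Set G)))
    (hYN : Y ≤ Subgroup.normalizer (Q : Set G)) :
    ∀ n ∈ Subgroup.normalizer (Q : Set G), ∃ n₁ ∈ Subgroup.normalizer (Y : Set G),
      ∃ c ∈ Subgroup.centralizer (Q : Set G), n = n₁ * c := by
  intro n hn
  obtain ⟨K, hKn, hKc, hfac⟩ := plen_one_factor hpl S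
  obtain ⟨k, hk, n₁, hn₁, h⟩ := hfac ⟨n, hn⟩
  have hQn : (Q.subgroupOf (Subgroup.normalizer (Q : Set G))).Normal :=
    Subgroup.normal_in_normalizer
  have hcomm := comm_of_normal_coprime K _ hKn hQn hKc hQp.comap_subtype
  refine ⟨(n₁ : G), ?_, ((n₁⁻¹ * k * n₁ : Subgroup.normalizer (Q : Set G)) : G), ?_, ?_⟩
  · apply mem_normalizer_of_conj
    intro y hy
    have h1 := (Subgroup.mem_normalizer_iff.mp hn₁ ⟨y, hYN hy⟩).mp (by
      rw [hS]
      exact Subgroup.mem_subgroupOf.mpr hy)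
    rw [hS, Subgroup.mem_subgroupOf] at h1
    exact h1
  · have hk' : n₁⁻¹ * k * n₁ ∈ K := by
      have := hKn.conj_mem k hk n₁⁻¹
      simpa using this
    rw [Subgroup.mem_centralizer_iff]
    intro q hq
    have hqN : q ∈ Subgroup.normalizer (Q : Set G) := Subgroup.le_normalizer hq
    have h1 := hcomm _ hk' ⟨q, hqN⟩ (Subgroup.mem_subgroupOf.mpr hq)
    exact (congrArg Subtype.val h1).symm
  · have h1 : n = (k : G) * (n₁ : G) := congrArg Subtype.val h
    rw [h1]
    simp only [Subgroup.coe_mul, Subgroup.coe_inv]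
    group

/-- In a `p`-group, a proper subgroup is properly contained in its normalizer. -/
theorem card_lt_card_inf_normalizer (P Q : Subgroup G) (hPp : IsPGroup p P) (hQP : Q ≤ P)
    (hne : Q ≠ P) : Nat.card Q < Nat.card (P ⊓ Subgroup.normalizer (Q : Set G) : Subgroup G) := by
  have : Group.IsNilpotent P := hPp.isNilpotent
  have hlt : Q.subgroupOf P < ⊤ := by
    rw [lt_top_iff_ne_top]
    intro h
    apply hne
    apply le_antisymm hQP
    rw [← Subgroup.subgroupOf_eq_top]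
    exact h
  have h1 := Group.normalizerCondition_of_isNilpotent (G := P) (Q.subgroupOf P) hlt
  obtain ⟨y, hy, hyQ⟩ := SetLike.exists_of_lt h1
  have hyG : (y : G) ∈ P ⊓ Subgroup.normalizer (Q : Set G) := by
    refine ⟨y.2, ?_⟩
    apply mem_normalizer_of_conj
    intro q hq
    have h2 := (Subgroup.mem_normalizer_iff.mp hy ⟨q, hQP hq⟩).mp (Subgroup.mem_subgroupOf.mpr hq)
    exact Subgroup.mem_subgroupOf.mp h2
  by_contra hcon
  push Not at hcon
  have hle : Q ≤ P ⊓ Subgroup.normalizer (Q : Set G) := le_inf hQP Subgroup.le_normalizer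
  have heq := Subgroup.eq_of_le_of_card_ge hle hcon
  apply hyQ
  rw [Subgroup.mem_subgroupOf, heq]
  exact hyG

/-- `P ∩ N_G(Q)` is a maximal `p`-subgroup of `N_G(Q)`, given control of fusion for some `Q'` between
`Q` and `P ∩ N_G(Q)`. -/
theorem inf_normalizer_maximal (P : Sylow p G) (Q Q' : Subgroup G) (hQQ' : Q ≤ Q')
    (hQ'Y : Q' ≤ (P : Subgroup G) ⊓ Subgroup.normalizer (Q : Set G))
    (hfus : ∀ x : G, (∀ q ∈ Q', x * q * x⁻¹ ∈ (P : Subgroup G)) →
      ∃ y ∈ Subgroup.normalizer ((P : Subgroup G) : Set G),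
        ∃ c ∈ Subgroup.centralizer (Q' : Set G), x = y * c) :
    ∀ T : Subgroup G, IsPGroup p T → (P : Subgroup G) ⊓ Subgroup.normalizer (Q : Set G) ≤ T →
      T ≤ Subgroup.normalizer (Q : Set G) →
      T = (P : Subgroup G) ⊓ Subgroup.normalizer (Q : Set G) := by
  intro T hTp hYT hTN
  obtain ⟨P', hP'⟩ := hTp.exists_le_sylow
  obtain ⟨h, hh⟩ := MulAction.exists_smul_eq G P P'
  have hT1 : ∀ t ∈ T, h⁻¹ * t * h ∈ (P : Subgroup G) := by
    intro t ht
    have h1 : t ∈ (P' : Subgroup G) := hP' ht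
    rw [← hh, Sylow.coe_subgroup_smul, Subgroup.mem_pointwise_smul_iff_inv_smul_mem] at h1
    have h2 : (MulAut.conj h)⁻¹ • t = h⁻¹ * t * h := by
      rw [← map_inv, MulAut.smul_def, MulAut.conj_apply, inv_inv]
    rw [h2] at h1
    exact h1
  have hY1 : ∀ q ∈ Q', h⁻¹ * q * h⁻¹⁻¹ ∈ (P : Subgroup G) := by
    intro q hq
    rw [inv_inv]
    exact hT1 q (hYT (hQ'Y hq))
  obtain ⟨y, hy, c, hc, hyc⟩ := hfus h⁻¹ hY1
  have hcQ : c ∈ Subgroup.centralizer (Q : Set G) :=
    Subgroup.centralizer_le (by exact_mod_cast hQQ') hc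
  have hcN : c ∈ Subgroup.normalizer (Q : Set G) := Subgroup.centralizer_le_normalizer _ hcQ
  have hcT : ∀ t ∈ T, c * t * c⁻¹ ∈ (P : Subgroup G) ⊓ Subgroup.normalizer (Q : Set G) := by
    intro t ht
    refine ⟨?_, ?_⟩
    · have e : c * t * c⁻¹ = y⁻¹ * (h⁻¹ * t * h) * y⁻¹⁻¹ := by
        have e1 : c = y⁻¹ * h⁻¹ := by
          rw [hyc]
          group
        rw [e1]
        group
      rw [e]
      exact (Subgroup.mem_normalizer_iff.mp (Subgroup.inv_mem _ hy) (h⁻¹ * t * h)).mp (hT1 t ht)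
    · exact Subgroup.mul_mem _ (Subgroup.mul_mem _ hcN (hTN ht)) (Subgroup.inv_mem _ hcN)
  apply (Subgroup.eq_of_le_of_card_ge hYT ?_).symm
  exact Nat.card_le_card_of_injective
    (fun t : T => (⟨c * t * c⁻¹, hcT t t.2⟩ :
      ((P : Subgroup G) ⊓ Subgroup.normalizer (Q : Set G) : Subgroup G))) (by
    intro t t' htt
    have h1 : c * (t : G) * c⁻¹ = c * (t' : G) * c⁻¹ := congrArg Subtype.val htt
    have h2 : (t : G) = t' := by
      have := congrArg (fun u => c⁻¹ * u * c) h1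
      simpa [mul_assoc] using this
    exact Subtype.ext h2)

end glevel

section fusion

variable {G : Type*} [Group G] [Finite G] {p : ℕ} [Fact p.Prime]

/-- **Control of fusion**: if all proper subgroups of the simple group `G` have `p`-length one,
`Q ≤ P` and `x Q x⁻¹ ≤ P`, then `x ∈ N_G(P) C_G(Q)`. -/
theorem fusion_factor_aux (hS : IsSimpleGroup G)
    (hpl : ∀ H : Subgroup G, H ≠ ⊤ → PLengthLE p 1 H) (P : Sylow p G) :
    ∀ (d : ℕ) (Q : Subgroup G), Q ≤ (P : Subgroup G) →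
      Nat.card (P : Subgroup G) - Nat.card Q ≤ d →
      ∀ x : G, (∀ q ∈ Q, x * q * x⁻¹ ∈ (P : Subgroup G)) →
        ∃ y ∈ Subgroup.normalizer ((P : Subgroup G) : Set G),
          ∃ c ∈ Subgroup.centralizer (Q : Set G), x = y * c := by
  intro d
  induction d with
  | zero =>
    intro Q hQP hd x hx
    have hQeq : Q = P := Subgroup.eq_of_le_of_card_ge hQP (by omega)
    subst hQeq
    exact ⟨x, mem_normalizer_of_conj _ x hx, 1, one_mem _, (mul_one x).symm⟩
  | succ d ih =>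
    intro Q hQP hd x hx
    by_cases hQeq : Q = P
    · subst hQeq
      exact ⟨x, mem_normalizer_of_conj _ x hx, 1, one_mem _, (mul_one x).symm⟩
    by_cases hQbot : Q = ⊥
    · subst hQbot
      refine ⟨1, one_mem _, x, ?_, (one_mul x).symm⟩
      rw [Subgroup.mem_centralizer_iff]
      intro q hq
      have hq1 : q = 1 := Subgroup.mem_bot.mp hq
      rw [hq1, one_mul, mul_one]
    have hQp : IsPGroup p Q := P.isPGroup'.to_le hQP
    have hNtop : Subgroup.normalizer (Q : Set G) ≠ ⊤ := by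
      intro h
      have hQn : Q.Normal := Subgroup.normalizer_eq_top_iff.mp h
      rcases hQn.eq_bot_or_eq_top with h1 | h1
      · exact hQbot h1
      · apply hQeq
        apply le_antisymm hQP
        rw [h1]
        exact le_top
    have hplN := hpl _ hNtop
    have hQY : Q ≤ (P : Subgroup G) ⊓ Subgroup.normalizer (Q : Set G) :=
      le_inf hQP Subgroup.le_normalizer
    have hY₁p : IsPGroup p ((P : Subgroup G) ⊓ Subgroup.normalizer (Q : Set G) : Subgroup G) :=
      P.isPGroup'.to_le inf_le_left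
    have hcardY := card_lt_card_inf_normalizer (P : Subgroup G) Q P.isPGroup' hQP hQeq
    have hcardP : Nat.card ((P : Subgroup G) ⊓ Subgroup.normalizer (Q : Set G) : Subgroup G) ≤
        Nat.card (P : Subgroup G) := Subgroup.card_le_of_le inf_le_left
    have ihY := ih ((P : Subgroup G) ⊓ Subgroup.normalizer (Q : Set G)) inf_le_left (by omega)
    have hmax := inf_normalizer_maximal P Q _ hQY le_rfl ihY
    obtain ⟨S, hSY⟩ := sylow_of_maximal _ _ inf_le_right hY₁p hmax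
    -- the conjugate `Q' = x Q x⁻¹`
    set Q' : Subgroup G := Q.map (MulAut.conj x).toMonoidHom with hQ'
    have hQ'mem : ∀ q ∈ Q, x * q * x⁻¹ ∈ Q' := fun q hq => ⟨q, hq, rfl⟩
    have hQ'P : Q' ≤ (P : Subgroup G) := by
      rintro _ ⟨q, hq, rfl⟩
      exact hx q hq
    have hQ'card : Nat.card Q' = Nat.card Q :=
      Subgroup.card_map_of_injective (MulAut.conj x).injective
    have hQ'ne : Q' ≠ P := by
      intro h
      apply hQeq
      apply Subgroup.eq_of_le_of_card_ge hQP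
      rw [← hQ'card, h]
    have hcardY₃ := card_lt_card_inf_normalizer (P : Subgroup G) Q' P.isPGroup' hQ'P hQ'ne
    have hcardP₃ : Nat.card ((P : Subgroup G) ⊓ Subgroup.normalizer (Q' : Set G) : Subgroup G) ≤
        Nat.card (P : Subgroup G) := Subgroup.card_le_of_le inf_le_left
    have ihY₃ := ih ((P : Subgroup G) ⊓ Subgroup.normalizer (Q' : Set G)) inf_le_left (by omega)
    -- `T = x⁻¹ Y₃ x`
    set T : Subgroup G :=
      ((P : Subgroup G) ⊓ Subgroup.normalizer (Q' : Set G)).map (MulAut.conj x⁻¹).toMonoidHom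
      with hT
    have hTp : IsPGroup p T := (P.isPGroup'.to_le inf_le_left).map _
    have hTN : T ≤ Subgroup.normalizer (Q : Set G) := by
      rintro _ ⟨u, hu, rfl⟩
      apply mem_normalizer_of_conj
      intro q hq
      have h1 := (Subgroup.mem_normalizer_iff.mp hu.2 (x * q * x⁻¹)).mp (hQ'mem q hq)
      obtain ⟨q', hq', hqq⟩ := h1
      have h2 : x * q' * x⁻¹ = u * (x * q * x⁻¹) * u⁻¹ := hqq
      have h3 : (MulAut.conj x⁻¹).toMonoidHom u * q * ((MulAut.conj x⁻¹).toMonoidHom u)⁻¹ = q' := by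
        have e : (MulAut.conj x⁻¹).toMonoidHom u = x⁻¹ * u * x := by
          simp
        rw [e]
        have e2 : x⁻¹ * u * x * q * (x⁻¹ * u * x)⁻¹ = x⁻¹ * (u * (x * q * x⁻¹) * u⁻¹) * x := by
          group
        rw [e2, ← h2]
        group
      rw [h3]
      exact hq'
    obtain ⟨n, hn, hnT⟩ := conj_into_sylow _ _ S hSY T hTp hTN
    have hY₃ : ∀ u ∈ (P : Subgroup G) ⊓ Subgroup.normalizer (Q' : Set G),
        (n * x⁻¹) * u * (n * x⁻¹)⁻¹ ∈ (P : Subgroup G) := by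
      intro u hu
      have h1 := hnT (x⁻¹ * u * x) ⟨u, hu, by simp⟩
      have e : n * x⁻¹ * u * (n * x⁻¹)⁻¹ = n * (x⁻¹ * u * x) * n⁻¹ := by group
      rw [e]
      exact h1.1
    obtain ⟨y, hy, c₃, hc₃, e1⟩ := ihY₃ (n * x⁻¹) hY₃
    obtain ⟨n₁, hn₁, c₀, hc₀, e2⟩ := normalizer_factor Q _ hQp hplN S hSY inf_le_right n hn
    have hn₁Y : ∀ q ∈ (P : Subgroup G) ⊓ Subgroup.normalizer (Q : Set G),
        n₁ * q * n₁⁻¹ ∈ (P : Subgroup G) := by
      intro q hq
      exact ((Subgroup.mem_normalizer_iff.mp hn₁ q).mp hq).1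
    obtain ⟨y₁, hy₁, c₁, hc₁, e3⟩ := ihY n₁ hn₁Y
    have hc₁Q : c₁ ∈ Subgroup.centralizer (Q : Set G) :=
      Subgroup.centralizer_le (by exact_mod_cast hQY) hc₁
    have hc₄ : x⁻¹ * c₃ * x ∈ Subgroup.centralizer (Q : Set G) := by
      rw [Subgroup.mem_centralizer_iff]
      intro q hq
      have hmem : x * q * x⁻¹ ∈ (P : Subgroup G) ⊓ Subgroup.normalizer (Q' : Set G) :=
        ⟨hx q hq, Subgroup.le_normalizer (hQ'mem q hq)⟩
      have h1 := Subgroup.mem_centralizer_iff.mp hc₃ (x * q * x⁻¹) hmem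
      calc q * (x⁻¹ * c₃ * x) = x⁻¹ * ((x * q * x⁻¹) * c₃) * x := by group
        _ = x⁻¹ * (c₃ * (x * q * x⁻¹)) * x := by rw [h1]
        _ = x⁻¹ * c₃ * x * q := by group
    refine ⟨y⁻¹ * y₁, Subgroup.mul_mem _ (Subgroup.inv_mem _ hy) hy₁,
      c₁ * c₀ * (x⁻¹ * c₃ * x)⁻¹,
      Subgroup.mul_mem _ (Subgroup.mul_mem _ hc₁Q hc₀) (Subgroup.inv_mem _ hc₄), ?_⟩
    have hc3 : c₃ = y⁻¹ * (n * x⁻¹) := by
      rw [e1]
      group
    rw [hc3, e2, e3]
    group

theorem fusion_factor (hS : IsSimpleGroup G)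
    (hpl : ∀ H : Subgroup G, H ≠ ⊤ → PLengthLE p 1 H) (P : Sylow p G)
    (Q : Subgroup G) (hQP : Q ≤ (P : Subgroup G)) (x : G)
    (hx : ∀ q ∈ Q, x * q * x⁻¹ ∈ (P : Subgroup G)) :
    ∃ y ∈ Subgroup.normalizer ((P : Subgroup G) : Set G),
      ∃ c ∈ Subgroup.centralizer (Q : Set G), x = y * c :=
  fusion_factor_aux hS hpl P _ Q hQP le_rfl x hx

end fusion

end Cfsg.Agent.Lib.Helper64.BG
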