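import Mathlib
import Cfsg.Prelude.Def_Local
import Cfsg.Prelude.Def_OddOrder
import Cfsg.Prelude.Def_OddOrderLocal
import Cfsg.Agent.Lib.Helper64.BG.Fusion

/-!
# Bender–Glauberman Theorem 10.6 (b): `P = [P, V] ≤ N_G(P)'`, from `p`-length one (S1410)
-/

set_option autoImplicit false

namespace Cfsg.Agent.Lib.Helper64.BG

open Cfsg
open scoped commutatorElement

/-- In a finite nilpotent group, a subgroup generating the group together with the commutator
subgroup is the whole group. -/
theorem eq_top_of_sup_commutator {H : Type*} [Group H] [Finite H] [Group.IsNilpotent H]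
    (K : Subgroup H) (h : K ⊔ commutator H = ⊤) : K = ⊤ := by
  by_contra hne
  obtain ⟨M, hM, hKM⟩ := (eq_top_or_exists_le_coatom K).resolve_left hne
  have hMn : M.Normal :=
    Subgroup.NormalizerCondition.normal_of_coatom M Group.normalizerCondition_of_isNilpotent hM
  obtain ⟨x, -, hx⟩ := SetLike.exists_of_lt (lt_top_iff_ne_top.mpr hM.1)
  have hsup : M ⊔ Subgroup.zpowers x = ⊤ := by
    apply hM.2
    refine lt_of_le_of_ne le_sup_left ?_
    intro heq
    apply hx
    rw [heq]
    exact Subgroup.mem_sup_right (Subgroup.mem_zpowers x)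
  have hcomm : commutator H ≤ M :=
    Subgroup.Normal.commutator_le_of_self_sup_commutative_eq_top hsup inferInstance
  have : (⊤ : Subgroup H) ≤ M := by
    rw [← h]
    exact sup_le hKM hcomm
  exact hM.1 (top_le_iff.mp this)

/-- `P ≤ [P,P] D` with `D ≤ P` forces `D = P` for a finite `p`-group `P`. -/
theorem eq_of_le_commutator_sup {G : Type*} [Group G] [Finite G] {p : ℕ} [Fact p.Prime]
    (P D : Subgroup G) (hP : IsPGroup p P) (hDP : D ≤ P) (h : P ≤ ⁅P, P⁆ ⊔ D) : D = P := by
  have : Group.IsNilpotent P := hP.isNilpotent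
  have h1 : D.subgroupOf P ⊔ commutator P = ⊤ := by
    apply Subgroup.map_injective P.subtype_injective
    rw [Subgroup.map_sup, Subgroup.map_subtype_commutator, Subgroup.subgroupOf_map_subtype,
      inf_of_le_left hDP, ← MonoidHom.range_eq_map, Subgroup.range_subtype]
    apply le_antisymm
    · exact sup_le hDP (Subgroup.commutator_le_self P)
    · rw [sup_comm]
      exact h
  have h2 := eq_top_of_sup_commutator _ h1
  exact le_antisymm hDP (Subgroup.subgroupOf_eq_top.mp h2)

/-- S1411 from S1410 (for the same `G` and `p`). -/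
theorem s1411_core {G : Type*} [Group G] [Finite G] (hG : Cfsg.IsMinSimpleOddOrder G) (p : ℕ)
    [Fact p.Prime] (h1410 : ∀ H : Subgroup G, H ≠ ⊤ → Cfsg.PLengthLE p 1 H) (P : Sylow p G)
    (V : Subgroup G) (hV : Cfsg.IsComplIn (P : Subgroup G) V (Subgroup.normalizer ((P : Subgroup G) : Set G))) :
    (P : Subgroup G) = ⁅(P : Subgroup G), V⁆ ∧
      (P : Subgroup G) ≤ ⁅Subgroup.normalizer ((P : Subgroup G) : Set G), Subgroup.normalizer ((P : Subgroup G) : Set G)⁆ := by
  have hS : IsSimpleGroup G := hG.2.1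
  have hnc : ¬ IsMulCommutative G := hG.2.2.1
  obtain ⟨-, hVN, -, hfac⟩ := hV
  -- `G` is perfect
  have hperf : commutator G = ⊤ := by
    rcases (inferInstance : (commutator G).Normal).eq_bot_or_eq_top with h | h
    · exfalso
      apply hnc
      rw [commutator_eq_bot_iff_center_eq_top] at h
      refine ⟨⟨fun a b => ?_⟩⟩
      have ha : a ∈ Subgroup.center G := by
        rw [h]
        exact Subgroup.mem_top a
      exact (Subgroup.mem_center_iff.mp ha b).symm
    · exact h
  have hfoc : (P : Subgroup G) = (P : Subgroup G).focalSubgroup := by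
    rw [← Subgroup.commutator_inf_eq_focalSubgroup P, hperf, top_inf_eq]
  -- generators of the focal subgroup are commutators with elements of `N_G(P)`
  have hgen : ∀ g : G, g ∈ (P : Subgroup G) → ∀ x ∈ (P : Subgroup G), ∀ u : G, g = ⁅x, u⁆ →
      ∃ y ∈ Subgroup.normalizer ((P : Subgroup G) : Set G), g = ⁅x, y⁆ := by
    intro g hg x hx u hgu
    have h1 : u * x⁻¹ * u⁻¹ ∈ (P : Subgroup G) := by
      have e : u * x⁻¹ * u⁻¹ = x⁻¹ * g := by
        rw [hgu, commutatorElement_def]
        group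
      rw [e]
      exact Subgroup.mul_mem _ (Subgroup.inv_mem _ hx) hg
    have hQP : Subgroup.zpowers x⁻¹ ≤ (P : Subgroup G) :=
      Subgroup.zpowers_le.mpr (Subgroup.inv_mem _ hx)
    have hconj : ∀ q ∈ Subgroup.zpowers x⁻¹, u * q * u⁻¹ ∈ (P : Subgroup G) := by
      rintro q ⟨k, rfl⟩
      have e : u * (x⁻¹) ^ k * u⁻¹ = (u * x⁻¹ * u⁻¹) ^ k := (conj_zpow).symm
      rw [e]
      exact Subgroup.zpow_mem _ h1 k
    obtain ⟨y, hy, c, hc, rfl⟩ := fusion_factor hS h1410 P _ hQP u hconj
    refine ⟨y, hy, ?_⟩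
    have h2 : x⁻¹ * c = c * x⁻¹ :=
      Subgroup.mem_centralizer_iff.mp hc x⁻¹ (Subgroup.mem_zpowers x⁻¹)
    rw [hgu, commutatorElement_def, commutatorElement_def]
    calc x * (y * c) * x⁻¹ * (y * c)⁻¹ = x * y * (c * x⁻¹) * c⁻¹ * y⁻¹ := by group
      _ = x * y * (x⁻¹ * c) * c⁻¹ * y⁻¹ := by rw [h2]
      _ = x * y * x⁻¹ * y⁻¹ := by group
  have hDP : ⁅(P : Subgroup G), V⁆ ≤ (P : Subgroup G) := by
    rw [Subgroup.commutator_le]
    intro x hx v hv
    have h1 : v * x⁻¹ * v⁻¹ ∈ (P : Subgroup G) :=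
      (Subgroup.mem_normalizer_iff.mp (hVN hv) x⁻¹).mp (Subgroup.inv_mem _ hx)
    have e : ⁅x, v⁆ = x * (v * x⁻¹ * v⁻¹) := by
      rw [commutatorElement_def]
      group
    rw [e]
    exact Subgroup.mul_mem _ hx h1
  -- `P` normalizes `[P, V]`
  have hDnorm : ∀ a ∈ (P : Subgroup G), ∀ d ∈ ⁅(P : Subgroup G), V⁆,
      a * d * a⁻¹ ∈ ⁅(P : Subgroup G), V⁆ := by
    intro a ha
    have h1 : ⁅(P : Subgroup G), V⁆ ≤
        (⁅(P : Subgroup G), V⁆).comap (MulAut.conj a).toMonoidHom := by
      rw [Subgroup.commutator_le]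
      intro x hx b hb
      rw [Subgroup.mem_comap]
      have e : (MulAut.conj a).toMonoidHom ⁅x, b⁆ = ⁅a * x, b⁆ * ⁅a, b⁆⁻¹ := by
        simp only [MulEquiv.toMonoidHom_eq_coe, MonoidHom.coe_coe, MulAut.conj_apply,
          commutatorElement_def]
        group
      rw [e]
      exact Subgroup.mul_mem _
        (Subgroup.commutator_mem_commutator (Subgroup.mul_mem _ ha hx) hb)
        (Subgroup.inv_mem _ (Subgroup.commutator_mem_commutator ha hb))
    intro d hd
    exact h1 hd
  refine ⟨?_, ?_⟩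
  · apply (eq_of_le_commutator_sup (P : Subgroup G) _ P.isPGroup' hDP ?_).symm
    conv_lhs => rw [hfoc]
    rw [Subgroup.focalSubgroup_def, Subgroup.closure_le]
    rintro g ⟨hg, x, hx, u, hgu⟩
    obtain ⟨y, hy, rfl⟩ := hgen g hg x hx u hgu
    obtain ⟨a, ha, b, hb, rfl⟩ := hfac y hy
    have e : ⁅x, a * b⁆ = ⁅x, a⁆ * (a * ⁅x, b⁆ * a⁻¹) := by
      simp only [commutatorElement_def]
      group
    rw [SetLike.mem_coe, e]
    exact Subgroup.mul_mem _
      (Subgroup.mem_sup_left (Subgroup.commutator_mem_commutator hx ha))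
      (Subgroup.mem_sup_right (hDnorm a ha _ (Subgroup.commutator_mem_commutator hx hb)))
  · conv_lhs => rw [hfoc]
    rw [Subgroup.focalSubgroup_def, Subgroup.closure_le]
    rintro g ⟨hg, x, hx, u, hgu⟩
    obtain ⟨y, hy, rfl⟩ := hgen g hg x hx u hgu
    exact Subgroup.commutator_mem_commutator (Subgroup.le_normalizer hx) hy

end Cfsg.Agent.Lib.Helper64.BG
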