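import Mathlib
import Cfsg.Prelude.Def_Local
import Cfsg.Prelude.Def_OddOrder
import Cfsg.Prelude.Def_OddOrderLocal
import Cfsg.Agent.Lib.Helper64.BG.Fusion

/-!
# Bender–Glauberman Corollary 10.7 (c), (d), (e), from `p`-length one (Theorem 10.6 (a) = S1410)
-/

set_option autoImplicit false

namespace Cfsg.Agent.Lib.Helper64.BG

open Cfsg

/-- S1413 from S1410 (for the same `G` and `p`). -/
theorem s1413_core {G : Type*} [Group G] [Finite G] (hG : Cfsg.IsMinSimpleOddOrder G) (p : ℕ)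
    [Fact p.Prime] (h1410 : ∀ H : Subgroup G, H ≠ ⊤ → Cfsg.PLengthLE p 1 H) (P : Sylow p G) :
    (∀ (Q : Subgroup G) (x : G), Q ≤ (P : Subgroup G) → Q.map (MulAut.conj x).toMonoidHom ≤ (P : Subgroup G) →
        ∃ y ∈ Subgroup.normalizer ((P : Subgroup G) : Set G), Q.map (MulAut.conj x).toMonoidHom = Q.map (MulAut.conj y).toMonoidHom) ∧
      (∀ Q : Subgroup G, Q ≤ (P : Subgroup G) →
        ¬ p ∣ ((P : Subgroup G) ⊓ Subgroup.normalizer (Q : Set G)).relIndex (Subgroup.normalizer (Q : Set G))) ∧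
      (∀ (R Q : Subgroup G), IsPGroup p R → Q ≤ (P : Subgroup G) ⊓ R →
        Subgroup.normalizer ((P : Subgroup G) : Set G) ≤ Subgroup.normalizer (Q : Set G) →
        Subgroup.normalizer (R : Set G) ≤ Subgroup.normalizer (Q : Set G)) := by
  have hS : IsSimpleGroup G := hG.2.1
  have hfus := fusion_factor hS h1410 P
  refine ⟨?_, ?_, ?_⟩
  · intro Q x hQP hx
    have hx' : ∀ q ∈ Q, x * q * x⁻¹ ∈ (P : Subgroup G) := fun q hq => hx ⟨q, hq, rfl⟩
    obtain ⟨y, hy, c, hc, rfl⟩ := hfus Q hQP x hx'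
    refine ⟨y, hy, ?_⟩
    ext z
    constructor
    · rintro ⟨q, hq, rfl⟩
      refine ⟨q, hq, ?_⟩
      have h1 : q * c = c * q := Subgroup.mem_centralizer_iff.mp hc q hq
      show y * q * y⁻¹ = y * c * q * (y * c)⁻¹
      calc y * q * y⁻¹ = y * (q * c) * c⁻¹ * y⁻¹ := by group
        _ = y * (c * q) * c⁻¹ * y⁻¹ := by rw [h1]
        _ = y * c * q * (y * c)⁻¹ := by group
    · rintro ⟨q, hq, rfl⟩
      refine ⟨q, hq, ?_⟩
      have h1 : q * c = c * q := Subgroup.mem_centralizer_iff.mp hc q hq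
      show y * c * q * (y * c)⁻¹ = y * q * y⁻¹
      calc y * c * q * (y * c)⁻¹ = y * (c * q) * c⁻¹ * y⁻¹ := by group
        _ = y * (q * c) * c⁻¹ * y⁻¹ := by rw [h1]
        _ = y * q * y⁻¹ := by group
  · intro Q hQP
    have hQY : Q ≤ (P : Subgroup G) ⊓ Subgroup.normalizer (Q : Set G) :=
      le_inf hQP Subgroup.le_normalizer
    have hmax := inf_normalizer_maximal P Q Q le_rfl hQY (hfus Q hQP)
    obtain ⟨S, hSY⟩ := sylow_of_maximal _ _ inf_le_right (P.isPGroup'.to_le inf_le_left) hmax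
    have h1 := S.not_dvd_index
    rw [hSY] at h1
    exact h1
  · intro R Q hRp hQ hNP z hz
    have hQP : Q ≤ (P : Subgroup G) := hQ.trans inf_le_left
    have hQR : Q ≤ R := hQ.trans inf_le_right
    obtain ⟨P', hP'⟩ := hRp.exists_le_sylow
    obtain ⟨h, hh⟩ := MulAction.exists_smul_eq G P P'
    have hR1 : ∀ r ∈ R, h⁻¹ * r * h ∈ (P : Subgroup G) := by
      intro r hr
      have h1 : r ∈ (P' : Subgroup G) := hP' hr
      rw [← hh, Sylow.coe_subgroup_smul, Subgroup.mem_pointwise_smul_iff_inv_smul_mem] at h1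
      have h2 : (MulAut.conj h)⁻¹ • r = h⁻¹ * r * h := by
        rw [← map_inv, MulAut.smul_def, MulAut.conj_apply, inv_inv]
      rw [h2] at h1
      exact h1
    have hQ1 : ∀ q ∈ Q, h⁻¹ * q * h⁻¹⁻¹ ∈ (P : Subgroup G) := by
      intro q hq
      rw [inv_inv]
      exact hR1 q (hQR hq)
    obtain ⟨y, hy, c, hc, hyc⟩ := hfus Q hQP h⁻¹ hQ1
    have hcR : ∀ r ∈ R, c * r * c⁻¹ ∈ (P : Subgroup G) := by
      intro r hr
      have e : c * r * c⁻¹ = y⁻¹ * (h⁻¹ * r * h) * y⁻¹⁻¹ := by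
        have e1 : c = y⁻¹ * h⁻¹ := by
          rw [hyc]
          group
        rw [e1]
        group
      rw [e]
      exact (Subgroup.mem_normalizer_iff.mp (Subgroup.inv_mem _ hy) (h⁻¹ * r * h)).mp (hR1 r hr)
    have hcz : ∀ q ∈ Q, (c * z) * q * (c * z)⁻¹ ∈ (P : Subgroup G) := by
      intro q hq
      have h1 : z * q * z⁻¹ ∈ R := (Subgroup.mem_normalizer_iff.mp hz q).mp (hQR hq)
      have e : c * z * q * (c * z)⁻¹ = c * (z * q * z⁻¹) * c⁻¹ := by group
      rw [e]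
      exact hcR _ h1
    obtain ⟨y₂, hy₂, c₂, hc₂, e2⟩ := hfus Q hQP (c * z) hcz
    have hz' : z = c⁻¹ * (y₂ * c₂) := by
      rw [← e2]
      group
    rw [hz']
    exact Subgroup.mul_mem _ (Subgroup.inv_mem _ (Subgroup.centralizer_le_normalizer _ hc))
      (Subgroup.mul_mem _ (hNP hy₂) (Subgroup.centralizer_le_normalizer _ hc₂))

end Cfsg.Agent.Lib.Helper64.BG
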